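import Cfsg.Agent.H535.RIM.Ov2
import Cfsg.Agent.J3Type.CharTools

/-!
# Columns of rational elements of prime power order over a central character (helper535, S4816)
-/

set_option autoImplicit false
set_option linter.unusedSectionVars false

open Cfsg Subgroup
open scoped ComplexConjugate

namespace Cfsg.Agent.H535.RIM

open Cfsg.Agent.Characters.Core Cfsg.Agent.H622.Over Cfsg.Agent.H382.RIM
open Cfsg.Agent.H653.Sieve

universe u

variable {G : Type u} [Group G] [Finite G]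

theorem eq_of_quot {Z : Subgroup G} [Z.Normal] (hZ : Z ≤ center G) {g h : G}
    (hg : (orderOf g).Coprime (Nat.card Z)) (hh : (orderOf h).Coprime (Nat.card Z))
    (hc : (g : G ⧸ Z) = (h : G ⧸ Z)) : g = h := by
  have h1 : h⁻¹ * g ∈ Z := by
    rw [← QuotientGroup.eq_one_iff, QuotientGroup.mk_mul, QuotientGroup.mk_inv, hc, inv_mul_cancel]
  obtain ⟨z, hz⟩ : ∃ z : G, z = h⁻¹ * g := ⟨_, rfl⟩
  rw [← hz] at h1
  have h2 : g = h * z := by rw [hz]; group
  have hcm : Commute h z := mem_center_iff.1 (hZ h1) h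
  have h3 : (h * z) ^ (orderOf h * orderOf g) = 1 := by
    rw [← h2, mul_comm, pow_mul, pow_orderOf_eq_one, one_pow]
  rw [hcm.mul_pow, pow_mul h, pow_orderOf_eq_one, one_pow, one_mul] at h3
  have h4 : (⟨z, h1⟩ : Z) ^ (orderOf h * orderOf g) = 1 := Subtype.ext h3
  have h5 : (⟨z, h1⟩ : Z) = 1 :=
    orderOf_eq_one_iff.1 (Nat.eq_one_of_dvd_coprimes (Nat.Coprime.mul_left hh hg) (orderOf_dvd_of_pow_eq_one h4)
      (orderOf_dvd_natCard _))
  have h6 : z = 1 := congrArg Subtype.val h5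
  rw [h2, h6, mul_one]

theorem card_cent_cop {Z : Subgroup G} [Z.Normal] (hZ : Z ≤ center G) {u : G}
    (hu : (orderOf u).Coprime (Nat.card Z)) :
    Nat.card (centralizer ({u} : Set G)) = Nat.card (centralizer ({(u : G ⧸ Z)} : Set (G ⧸ Z))) * Nat.card Z := by
  rw [← H849.RIM.card_comap]
  congr 2
  ext x
  rw [mem_centralizer_singleton_iff, mem_comap, mem_centralizer_singleton_iff]
  constructor
  · intro h
    have := congrArg (QuotientGroup.mk' Z) h
    simpa using this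
  · intro h
    have h2 : (x : G ⧸ Z) * u = u * x := h
    have h1 : ((x * u * x⁻¹ : G) : G ⧸ Z) = u := by
      rw [QuotientGroup.mk_mul, QuotientGroup.mk_mul, QuotientGroup.mk_inv, h2, mul_inv_cancel_right]
    have h3 := eq_of_quot hZ (g := x * u * x⁻¹) (h := u) (by
      rw [show orderOf (x * u * x⁻¹) = orderOf u from orderOf_injective (MulAut.conj x).toMonoidHom
        (MulAut.conj x).injective u]; exact hu) hu h1
    rwa [mul_inv_eq_iff_eq_mul] at h3

theorem exists_lift_cop {Z : Subgroup G} [Z.Normal] {y : G ⧸ Z} (hy : (orderOf y).Coprime (Nat.card Z)) :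
    ∃ u : G, (u : G ⧸ Z) = y ∧ orderOf u = orderOf y := by
  obtain ⟨g, rfl⟩ := QuotientGroup.mk_surjective y
  set n := orderOf (g : G ⧸ Z) with hn
  obtain ⟨k, hk1, hk2⟩ := Nat.chineseRemainder hy 1 0
  have hgn : g ^ n ∈ Z := by
    rw [← QuotientGroup.eq_one_iff, QuotientGroup.mk_pow, hn, pow_orderOf_eq_one]
  have hk0 : Nat.card Z ∣ k := (Nat.modEq_zero_iff_dvd).1 hk2
  have h1 : (g : G ⧸ Z) ^ k = g := by
    have h2 := (pow_eq_pow_iff_modEq (x := (g : G ⧸ Z)) (n := 1) (m := k)).2 hk1.symm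
    rw [pow_one] at h2
    exact h2.symm
  refine ⟨g ^ k, by rw [QuotientGroup.mk_pow, h1], ?_⟩
  apply Nat.dvd_antisymm
  · apply orderOf_dvd_of_pow_eq_one
    rw [← pow_mul, mul_comm, pow_mul]
    obtain ⟨j, hj⟩ := hk0
    rw [hj, pow_mul]
    have h3 : (⟨g ^ n, hgn⟩ : Z) ^ Nat.card Z = 1 := pow_card_eq_one'
    have h4 : (g ^ n) ^ Nat.card Z = 1 := congrArg Subtype.val h3
    rw [h4, one_pow]
  · have h5 := orderOf_map_dvd (QuotientGroup.mk' Z) (g ^ k)
    have h6 : QuotientGroup.mk' Z (g ^ k) = (g : G ⧸ Z) := by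
      rw [map_pow]
      exact h1
    rwa [h6] at h5

/-- the values at a rational element of prime power order -/
theorem dvd_sub_of_rat {p : ℕ} (hp : p.Prime) {χ : G → ℂ} (hχ : IsCharacter G χ) {d : ℤ} (hd : χ 1 = d) :
    ∀ {n : ℕ} {g : G}, orderOf g = p ^ n → (∀ k : ℕ, k.Coprime p → IsConj g (g ^ k)) →
      ∃ a : ℤ, χ g = a ∧ (p : ℤ) ∣ d - a
  | 0, g, hg, _ => by
    rw [pow_zero, orderOf_eq_one_iff] at hg
    exact ⟨d, by rw [hg, hd], by simp⟩
  | n + 1, g, hg, hr => by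
    have h1 : orderOf (g ^ p) = p ^ n := by
      rw [orderOf_pow' _ hp.ne_zero, hg, Nat.gcd_eq_right (dvd_pow_self p (Nat.succ_ne_zero n)), pow_succ,
        Nat.mul_div_cancel _ hp.pos]
    obtain ⟨b, hb, hdb⟩ := dvd_sub_of_rat hp hχ hd (g := g ^ p) h1 fun k hk => by
      have h2 := (hr k hk).pow p
      rwa [← pow_mul, mul_comm, pow_mul] at h2
    obtain ⟨a, ha⟩ := Cfsg.Agent.J3Type.CharTools.int_of_conj hχ g fun m hm =>
      hr m (by
        rw [hg] at hm
        exact Nat.Coprime.coprime_dvd_right (dvd_pow_self p (Nat.succ_ne_zero n)) hm)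
    refine ⟨a, ha, ?_⟩
    have h3 := Cfsg.Agent.J3Type.CharTools.int_congr hχ g hp ha hb
    have h4 : d - a = (d - b) - (a - b) := by ring
    rw [h4]
    exact dvd_sub hdb h3

section

variable [Fintype (IrrCharacter G)]

/-- the column of a rational element of prime power order -/
theorem exists_val_pow {p n : ℕ} (hp : p.Prime) (hn : n ≠ 0) {Z : Subgroup G} [Z.Normal] (hZ : Z ≤ center G)
    (hZp : ¬ p ∣ Nat.card Z) {y : G ⧸ Z} (hy : orderOf y = p ^ n) (hr : ∀ k : ℕ, k.Coprime p → IsConj y (y ^ k))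
    (c : Z →* ℂˣ) :
    ∃ (u : G) (A : IrrCharacter G → ℤ), (u : G ⧸ Z) = y ∧ orderOf u = p ^ n ∧ Lin Z A ∧
      (∀ χ : IrrCharacter G, (χ : G → ℂ) u = A χ) ∧
      (∑ χ ∈ ov Z c, A χ * A χ = (Nat.card (centralizer ({y} : Set (G ⧸ Z))) : ℤ)) ∧
      (∑ χ ∈ ov Z c, (deg χ : ℤ) * A χ = 0) ∧ (∀ χ : IrrCharacter G, (p : ℤ) ∣ (deg χ : ℤ) - A χ) := by
  classical
  have hcop : (p ^ n).Coprime (Nat.card Z) := Nat.Coprime.pow_left n ((hp.coprime_iff_not_dvd).2 hZp)
  obtain ⟨u, hu, ho⟩ := exists_lift_cop (y := y) (by rw [hy]; exact hcop)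
  rw [hy] at ho
  have hrat : ∀ k : ℕ, k.Coprime p → IsConj u (u ^ k) := by
    intro k hk
    have h1 : orderOf (u ^ k) = p ^ n := by
      rw [Nat.Coprime.orderOf_pow, ho]
      rw [ho]
      exact Nat.Coprime.pow_left n hk.symm
    refine isConj_of_quot hZ (by rw [ho]; exact hcop) (by rw [h1]; exact hcop) ?_
    rw [QuotientGroup.mk_pow, hu]
    exact hr k hk
  choose A hA hAd using fun χ : IrrCharacter G => dvd_sub_of_rat hp (isIrr_isCharacter χ.2) (d := (deg χ : ℤ))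
    (by rw [deg_cast]; push_cast; rfl) ho hrat
  have hlin : Lin Z A := lin_val (by rw [ho]; exact hcop) hA
  have hu1 : u ≠ 1 := by
    rintro rfl
    rw [orderOf_one] at ho
    exact absurd ho.symm (Nat.one_lt_pow hn hp.one_lt).ne'
  have hconj : ∀ χ : IrrCharacter G, ((A χ : ℤ) : ℂ) = conj ((A χ : ℤ) : ℂ) := fun χ => (map_intCast (starRingEnd ℂ) (A χ)).symm
  refine ⟨u, A, hu, ho, hlin, hA, ?_, ?_, hAd⟩
  · refine sum_eq hZ c hlin hlin ?_
    have h1 := H686.CharKit.col_orth (G := G) u u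
    rw [if_pos (IsConj.refl u), card_cent_cop hZ (by rw [ho]; exact hcop), hu] at h1
    have h2 : ∀ χ : IrrCharacter G, (χ : G → ℂ) u * conj ((χ : G → ℂ) u) = ((A χ * A χ : ℤ) : ℂ) := by
      intro χ
      rw [hA, ← hconj]
      push_cast
      ring
    rw [Finset.sum_congr rfl fun χ _ => h2 χ, ← Int.cast_sum] at h1
    have h3 : ((∑ χ : IrrCharacter G, A χ * A χ : ℤ) : ℂ) =
        ((Nat.card Z * (Nat.card (centralizer ({y} : Set (G ⧸ Z))) : ℤ) : ℤ) : ℂ) := by
      rw [h1]; push_cast; ring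
    exact_mod_cast h3
  · refine sum_eq hZ c (lin_deg Z) hlin ?_
    have h1 := H686.CharKit.col_orth (G := G) 1 u
    rw [if_neg (by rw [isConj_one_right]; exact hu1)] at h1
    have h2 : ∀ χ : IrrCharacter G, (χ : G → ℂ) 1 * conj ((χ : G → ℂ) u) = (((deg χ : ℤ) * A χ : ℤ) : ℂ) := by
      intro χ
      rw [hA, ← hconj, deg_cast]
      push_cast
      ring
    rw [Finset.sum_congr rfl fun χ _ => h2 χ, ← Int.cast_sum] at h1
    rw [mul_zero]
    exact_mod_cast h1

/-- the column of a subgroup and the column of an element not fused into it -/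
theorem cross_elt {Z : Subgroup G} (hZ : Z ≤ center G) (c : Z →* ℂˣ) {H : Subgroup G} {e : ℕ}
    {W A : IrrCharacter G → ℤ} (hW : IsCol H e W) (he : e ≠ 0) (lW : Lin Z W) (lA : Lin Z A) {u : G}
    (hA : ∀ χ : IrrCharacter G, (χ : G → ℂ) u = A χ) (hnc : ∀ y ∈ H, y ≠ 1 → ¬ IsConj y u) :
    ∑ χ ∈ ov Z c, W χ * A χ = 0 := by
  classical
  refine sum_eq hZ c lW lA ?_
  rw [mul_zero]
  have hfH := Fintype.ofFinite H
  have h0 : ∑ χ : IrrCharacter G, csum H (χ : G → ℂ) * conj ((χ : G → ℂ) u) = 0 := by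
    have h1 : ∀ χ : IrrCharacter G, csum H (χ : G → ℂ) * conj ((χ : G → ℂ) u) =
        ∑ x ∈ (Finset.univ : Finset H).erase 1, (χ : G → ℂ) x * conj ((χ : G → ℂ) u) := by
      intro χ
      rw [csum_eq_erase, Finset.sum_mul]
    rw [Finset.sum_congr rfl fun χ _ => h1 χ, Finset.sum_comm, Finset.sum_eq_zero]
    intro x hx
    rw [H686.CharKit.col_orth, if_neg]
    exact hnc x x.2 fun h => (Finset.mem_erase.1 hx).1 (Subtype.ext h)
  have h2 : ∀ χ : IrrCharacter G, csum H (χ : G → ℂ) * conj ((χ : G → ℂ) u) = (e : ℂ) * ((W χ * A χ : ℤ) : ℂ) := by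
    intro χ
    rw [← hW χ, hA, map_intCast]
    push_cast
    ring
  rw [Finset.sum_congr rfl fun χ _ => h2 χ, ← Finset.mul_sum, mul_eq_zero, ← Int.cast_sum] at h0
  rcases h0 with h0 | h0
  · exact absurd (by exact_mod_cast h0) he
  · exact_mod_cast h0

/-- the same for elements of coprime order -/
theorem cross_cop {Z : Subgroup G} (hZ : Z ≤ center G) (c : Z →* ℂˣ) {H : Subgroup G} {e r : ℕ}
    (hr : Nat.card H = r) {W A : IrrCharacter G → ℤ} (hW : IsCol H e W) (he : e ≠ 0) (lW : Lin Z W) (lA : Lin Z A) {u : G}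
    (hA : ∀ χ : IrrCharacter G, (χ : G → ℂ) u = A χ) (hu : (orderOf u).Coprime r) (hu1 : orderOf u ≠ 1) :
    ∑ χ ∈ ov Z c, W χ * A χ = 0 := by
  refine cross_elt hZ c hW he lW lA hA fun y hy hy1 hc => ?_
  obtain ⟨g, hg⟩ := isConj_iff.1 hc
  have h1 : orderOf u = orderOf y := by
    rw [← hg]
    exact orderOf_injective (MulAut.conj g).toMonoidHom (MulAut.conj g).injective y
  have h2 : orderOf y ∣ r := by
    rw [← hr, ← Subgroup.orderOf_mk y hy]
    exact orderOf_dvd_natCard _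
  rw [← h1] at h2
  exact hu1 (Nat.eq_one_of_dvd_coprimes hu dvd_rfl h2)

end

end Cfsg.Agent.H535.RIM
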